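import Cfsg.Agent.H290.GS.RowF4
import Cfsg.Agent.H400.GsEndF

/-! # The row `F₄(q)` of S4327, unconditional (helper290; end step by helper400) -/

set_option autoImplicit false

namespace Cfsg.Agent.H290.GS.RowF4

open Cfsg.Agent.H147.Gen (Gen11)

/-- **The row `F₄(q)`.** -/
theorem row {L : Type*} [Group L] [IsSimpleGroup L] (hL : Cfsg.Lie.IsoF4 L) : Gen11 L := by
  refine row_of (fun K _ _ => ?_) hL
  obtain ⟨p, hcp⟩ := CharP.exists K
  have hp' : Fact p.Prime := ⟨CharP.char_is_prime K p⟩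
  have hW : Finite CoxeterMatrix.F₄.Group :=
    Cfsg.Agent.Nodes.RGDChev.finite_W Cfsg.Agent.Nodes.KindF.isType Cfsg.Agent.H290.GS.F4.cF
  exact Cfsg.Agent.H400.Gs.RowF.end_all Cfsg.Agent.Nodes.KindF.isType Cfsg.Agent.H290.GS.F4.cF p

end Cfsg.Agent.H290.GS.RowF4
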